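import Cfsg.Agent.Loc.PGrp
import Cfsg.Agent.Sig.Core
import Cfsg.Agent.PGrp.Basic
import Mathlib.GroupTheory.Perm.Cycle.Type

/-! TI subgroups of `p`-groups (helper3): `eq_of_fix_sq` (an automorphism of an abelian 2-group with the fixed points of
its square), `comm_of_ti`, `comm_of_family` (invariant TI families in 2-groups commute). -/

set_option autoImplicit false

namespace Cfsg.Agent.FG

open Subgroup Cfsg.Agent.Loc

theorem eq_of_fix_sq {A : Type*} [CommGroup A] [Finite A] (hA : IsPGroup 2 A) (t : MulAut A) {k : ℕ}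
    (ht : t ^ 2 ^ k = 1) (hC : ∀ a : A, t (t a) = a → t a = a) (a : A) : t a = a := by
  classical
  by_contra hne
  let φ : A →* A := (t : A →* A) / MonoidHom.id A
  have hφ : ∀ a, φ a = t a / a := fun _ => rfl
  let B := φ.range ⊓ (powMonoidHom 2 : A →* A).ker
  have hB : B ≠ ⊥ := by
    obtain ⟨x, hx, h1, h2⟩ := exists_pow_eq_one_of_isPGroup (p := 2) (N := φ.range) (hA.to_subgroup _) fun h =>
      hne (div_eq_one.1 ((eq_bot_iff_forall _).1 h _ ⟨a, hφ a⟩))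
    exact fun h => h1 ((eq_bot_iff_forall _).1 h x ⟨hx, h2⟩)
  have hinv : ∀ s : MulAut A, Commute s t → ∀ x ∈ B, s x ∈ B := by
    rintro s hs _ ⟨⟨y, rfl⟩, h2⟩
    refine ⟨⟨s y, by rw [hφ, hφ, map_div, ← MulAut.mul_apply, ← hs.eq, MulAut.mul_apply]⟩, ?_⟩
    change s (φ y) ^ 2 = 1
    rw [← map_pow, show φ y ^ 2 = 1 from h2, map_one]
  let σ : Equiv.Perm B := Equiv.Perm.subtypePerm (t : A ≃ A) fun x =>
    ⟨fun h => by simpa using hinv t⁻¹ (Commute.refl t).inv_left _ h, hinv t (Commute.refl t) x⟩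
  haveI := Fintype.ofFinite B
  have hσ : σ ^ 2 ^ k = 1 := by
    ext x
    have : ∀ n, ((σ ^ n) x : A) = (t ^ n) x := fun n => by
      induction n with
      | zero => rfl
      | succ n ih => rw [pow_succ', pow_succ', Equiv.Perm.mul_apply, MulAut.mul_apply, ← ih]; rfl
    rw [this, ht]; rfl
  obtain ⟨⟨b, ⟨y, rfl⟩, h2⟩, hb, h1⟩ := Equiv.Perm.exists_fixed_point_of_prime' (p := 2) (n := k)
    (by rw [← Nat.card_eq_fintype_card]; exact dvd_card_of_isPGroup (hA.to_subgroup _) hB) hσ (a := 1)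
    (Subtype.ext (map_one t))
  have hb' : t (t y / y) = t y / y := congrArg Subtype.val hb
  have h2' : (t y / y) ^ 2 = 1 := h2
  refine h1 (Subtype.ext (div_eq_one.2 (hC y ?_)))
  rw [map_div, div_eq_iff_eq_mul] at hb'
  rw [hb', ← div_eq_one, mul_div_assoc, ← sq, h2']

variable {G : Type*} [Group G] [Finite G]

theorem comm_of_ti {p : ℕ} [Fact p.Prime] {A B : Subgroup G} (hA : IsPGroup p A) (hB : IsPGroup p B)
    (hti : ∀ a ∈ A, cj a B = B ∨ cj a B ⊓ B = ⊥) (hle : Nat.card A ≤ Nat.card B) (hAB : A ⊓ B = ⊥)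
    (hN : B ≤ normalizer (A : Set G)) : ⁅A, B⁆ = ⊥ := by
  refine Sig.commutator_eq_bot_of_inf_eq_bot ?_ hN hAB
  by_contra hn
  set N := A ⊓ normalizer (B : Set G) with hNd
  have hlt : N < A := lt_of_le_of_ne inf_le_left fun h => hn (h ▸ inf_le_right)
  have nB : N ≤ normalizer (B : Set G) := inf_le_right
  have hM : N ⊔ B < A ⊔ B := lt_of_le_of_ne (sup_le_sup_right hlt.le _) fun h => hn fun a ha =>
    (sup_le nB le_normalizer) (h ▸ mem_sup_left ha : a ∈ N ⊔ B)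
  obtain ⟨x, ⟨hx, hxn⟩, hxM⟩ := SetLike.exists_of_lt (lt_inf_normalizer (hA.to_sup_of_normal_left' hB hN) hM)
  obtain ⟨a, ha, b, hb, rfl⟩ := (mem_sup_of_le_normalizer_left hN).1 hx
  have han : a ∈ normalizer ((N ⊔ B : Subgroup G) : Set G) :=
    (mul_mem_cancel_right (le_normalizer (mem_sup_right hb))).1 hxn
  have haN : a ∉ N := fun h => hxM (mul_mem (mem_sup_left h) (mem_sup_right hb))
  have h0 := (hti a ha).resolve_left fun h => haN ⟨ha, mem_normalizer_iff_cj.2 h⟩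
  have h1 : ∀ y : B, ∃ n : N, (n : G)⁻¹ * (a * y * a⁻¹) ∈ B := fun y => by
    obtain ⟨n, hn, c, hc, e⟩ := (mem_sup_of_le_normalizer_right nB).1
      (conj_mem_of_mem_normalizer han (mem_sup_right y.2))
    exact ⟨⟨n, hn⟩, by rwa [← e, inv_mul_cancel_left]⟩
  choose f hf using h1
  have hinj : Function.Injective f := fun y z e => by
    have h2 := mul_mem (inv_mem (hf y)) (hf z)
    rw [e, show ((f z : G)⁻¹ * (a * y * a⁻¹))⁻¹ * ((f z : G)⁻¹ * (a * z * a⁻¹)) = a * ((y : G)⁻¹ * z) * a⁻¹ by group] at h2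
    have h3 := (eq_bot_iff_forall _).1 h0 _ ⟨conj_mem_cj (mul_mem (inv_mem y.2) z.2), h2⟩
    exact Subtype.ext (inv_mul_eq_one.1 (conj_eq_one_iff.1 h3))
  exact absurd ((Nat.card_le_card_of_injective f hinj).trans_lt (Set.Finite.card_lt_card (Set.toFinite _) hlt))
    (not_lt.2 hle)

theorem sup_cj_lt {p : ℕ} [Fact p.Prime] {R H : Subgroup G} (hH : IsPGroup p H) (h : R < H) {x : G} (hx : x ∈ H) :
    R ⊔ cj x R < H := by
  obtain ⟨M, hM, hle⟩ := (eq_top_or_exists_le_coatom (R.subgroupOf H)).resolve_left fun e =>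
    h.not_ge (subgroupOf_eq_top.1 e)
  have h1 : R ≤ M.map H.subtype := (map_subgroupOf_eq_of_le h.le).symm.le.trans (map_mono hle)
  refine (sup_le h1 (cj_le_of_mem_normalizer (normal_map_subtype (PGrp.normal_of_isCoatom hH hM) hx) h1)).trans_lt
    (lt_of_le_of_ne (map_subtype_le M) fun e => hM.1 (map_injective H.subtype_injective ?_))
  rw [e, Sig.top_map_subtype]

theorem comm_of_family (hS : IsPGroup 2 G) {Δ : Set (Subgroup G)} (hinv : ∀ s : G, ∀ R ∈ Δ, cj s R ∈ Δ)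
    (hΦ : ∀ R ∈ Δ, ∃ x ∈ R, x ^ 2 ≠ 1) (hord : ∀ R ∈ Δ, ∀ T ∈ Δ, Nat.card R = Nat.card T)
    (hti : ∀ R ∈ Δ, ∀ T ∈ Δ, R = T ∨ R ⊓ T = ⊥) : ∀ R ∈ Δ, ∀ T ∈ Δ, R ≠ T → ⁅R, T⁆ = ⊥ := by
  suffices ∀ n, ∀ R ∈ Δ, ∀ T ∈ Δ, Nat.card (R ⊔ T : Subgroup G) = n → R ≠ T → ⁅R, T⁆ = ⊥ from
    fun R hR T hT => this _ R hR T hT rfl
  intro n
  induction n using Nat.strong_induction_on with
  | _ n ih =>
  intro R hR T hT hn hne
  have conjc : ∀ R ∈ Δ, ∀ T ∈ Δ, Nat.card (R ⊔ T : Subgroup G) = n → R ≠ T → ∀ t ∈ T, t ∉ normalizer (R : Set G) →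
      (∀ a ∈ R, ∀ b ∈ R, Commute a (t * b * t⁻¹)) ∧ ∀ a ∈ R, t * a * t⁻¹ ∈ R → a = 1 := by
    intro R hR T hT hn hne t ht htn
    have h1 : R ≠ cj t R := fun e => htn (mem_normalizer_iff_cj.2 e.symm)
    have hlt : R < R ⊔ T := left_lt_sup.2 fun h => hne (eq_of_le_of_card_ge h (hord R hR T hT).le).symm
    have h2 := ih _ (hn ▸ Set.Finite.card_lt_card (Set.toFinite _) (sup_cj_lt (hS.to_subgroup _) hlt (mem_sup_right ht)))
      R hR _ (hinv t R hR) rfl h1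
    refine ⟨fun a ha b hb => commutatorElement_eq_one_iff_commute.1 ((eq_bot_iff_forall _).1 h2 _
      (commutator_mem_commutator ha (conj_mem_cj hb))), fun a ha h => conj_eq_one_iff.1 ((eq_bot_iff_forall _).1
      ((hti R hR _ (hinv t R hR)).resolve_left h1) _ ⟨h, conj_mem_cj ha⟩)⟩
  have h0 := (hti R hR T hT).resolve_left hne
  have ti : ∀ T ∈ Δ, ∀ a, cj a T = T ∨ cj a T ⊓ T = ⊥ := fun T hT a => hti _ (hinv a T hT) T hT
  by_cases n1 : T ≤ normalizer (R : Set G)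
  · exact comm_of_ti (hS.to_subgroup _) (hS.to_subgroup _) (fun a _ => ti T hT a) (hord R hR T hT).le h0 n1
  by_cases n2 : R ≤ normalizer (T : Set G)
  · rw [commutator_comm]
    exact comm_of_ti (hS.to_subgroup _) (hS.to_subgroup _) (fun a _ => ti R hR a) (hord T hT R hR).le
      (inf_comm R T ▸ h0) n2
  exfalso
  obtain ⟨r0, hr0, hr0n⟩ := SetLike.not_le_iff_exists.1 n2
  obtain ⟨m, hrn, hr2⟩ := PGrp.exists_pow_not_mem hS hr0n
  have hr := pow_mem hr0 (2 ^ m)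
  generalize r0 ^ 2 ^ m = r at hr hrn hr2
  obtain ⟨cT, iT⟩ := conjc T hT R hR (sup_comm R T ▸ hn) hne.symm r hr hrn
  have inv : ∀ t ∈ T, t ∉ normalizer (R : Set G) → t ^ 2 = 1 := fun t ht htn => by
    have c1 := (conjc R hR T hT hn hne t⁻¹ (inv_mem ht) (fun h => htn (inv_mem_iff.1 h))).1 r hr r hr
    have c2 := cT t ht t ht
    refine iT _ (pow_mem ht 2) ?_
    have e : r * t ^ 2 * r⁻¹ = (r ^ 2 * t * (r ^ 2)⁻¹) * t := by
      have e1 : r * t ^ 2 * r⁻¹ = (r * t * r⁻¹ * t⁻¹) * (r * t * r⁻¹) * t := by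
        rw [mul_assoc (r * t * r⁻¹) t⁻¹, mul_assoc (r * t * r⁻¹), mul_assoc t⁻¹, ← c2.eq, sq]; group
      have c3 : (t⁻¹ * r * t) * r⁻¹ = r⁻¹ * (t⁻¹ * r * t) := by
        rw [inv_inv] at c1; exact c1.inv_left.eq.symm
      rw [e1]
      congr 1
      calc r * t * r⁻¹ * t⁻¹ * (r * t * r⁻¹) = r * t * (r⁻¹ * (t⁻¹ * r * t)) * r⁻¹ := by group
        _ = _ := by rw [← c3, sq]; group
    rw [e]
    exact mul_mem (conj_mem_of_mem_normalizer hr2 ht) ht
  obtain ⟨t, ht, htn⟩ := SetLike.not_le_iff_exists.1 n1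
  obtain ⟨x, hx, hx2⟩ := hΦ T hT
  obtain ⟨u, ⟨hu, hun⟩, hu1, hu2⟩ := exists_pow_eq_one_of_isPGroup (p := 2) (N := T ⊓ normalizer (R : Set G))
    (hS.to_subgroup _) fun h => hx2 (by
      by_cases hxn : x ∈ normalizer (R : Set G)
      · rw [(eq_bot_iff_forall _).1 h x ⟨hx, hxn⟩, one_pow]
      · exact inv x hx hxn)
  have c1 : Commute t u := by
    have h1 := inv _ (mul_mem ht hu) fun h => htn (((normalizer (R : Set G)).mul_mem_cancel_right hun).1 h)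
    have h2 := inv t ht htn
    rw [sq] at h1 h2 hu2
    change t * u = u * t
    rw [← inv_eq_of_mul_eq_one_right h1, mul_inv_rev, inv_eq_of_mul_eq_one_right h2, inv_eq_of_mul_eq_one_right hu2]
  have hv : r * u * r⁻¹ * u⁻¹ ∈ R := by
    rw [mul_assoc, mul_assoc, ← mul_assoc u]; exact mul_mem hr (conj_mem_of_mem_normalizer hun (inv_mem hr))
  have h3 := (conjc R hR T hT hn hne t ht htn).2 _ hv (by
    rwa [((cT t ht u hu).mul_right c1.inv_right).eq, mul_inv_cancel_right])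
  exact hu1 (iT u hu (by rwa [mul_inv_eq_one.1 h3]))

end Cfsg.Agent.FG
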